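import Cfsg.Agent.H2.S7Br
import Cfsg.Agent.H7.U7Big

/-! The normaliser of `7^{1+2}` in `SU₇(q)`: reduction to the standard model. -/

set_option autoImplicit false
set_option maxHeartbeats 1000000
set_option linter.unusedSimpArgs false
set_option linter.unusedSectionVars false
set_option linter.unusedVariables false
set_option linter.unnecessarySeqFocus false

namespace Cfsg.Agent.H5.C7U

open Matrix Subgroup Cfsg.Agent.H5.T3 Cfsg.Agent.H5.U Cfsg.Agent.H2.S7 Cfsg.Agent.H2.S7.Br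
  Cfsg.Agent.H6

variable {F : Type*} [Field F] {ω : F}

theorem irr7 (h : Om7 ω) (h7 : (7 : F) ≠ 0)
    (W : Submodule F (Fin 7 → F)) (h1 : ∀ w ∈ W, ρ ω *ᵥ w ∈ W) (h2 : ∀ w ∈ W, τ *ᵥ w ∈ W) :
    W = ⊥ ∨ W = ⊤ := by
  have o7 := om7 h
  replace h1 : ∀ {a b c d e f g : F}, ![a, b, c, d, e, f, g] ∈ W →
      ![a, ω * b, ω ^ 2 * c, ω ^ 3 * d, ω ^ 4 * e, ω ^ 5 * f, ω ^ 6 * g] ∈ W := fun hw => by
    convert h1 _ hw using 1; ext i; fin_cases i <;> simp [ρ, mulVec, dotProduct, Fin.sum_univ_succ]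
  replace h2 : ∀ {a b c d e f g : F}, ![a, b, c, d, e, f, g] ∈ W → ![g, a, b, c, d, e, f] ∈ W :=
    fun hw => by
    convert h2 _ hw using 1; ext i; fin_cases i <;> simp [τ, mulVec, dotProduct, Fin.sum_univ_succ]
  have k : ∀ {a b c d e f g : F}, ![a, b, c, d, e, f, g] ∈ W → W ≠ ⊤ → a = 0 :=
    fun {a b c d e f g} hw hne => by_contra fun w0 => hne (by
      have e : ![1, 0, 0, 0, 0, 0, 0] ∈ W := by
        convert W.smul_mem (7 * a)⁻¹ (W.add_mem (W.add_mem (W.add_mem (W.add_mem (W.add_mem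
          (W.add_mem hw (h1 hw)) (h1 (h1 hw))) (h1 (h1 (h1 hw)))) (h1 (h1 (h1 (h1 hw)))))
          (h1 (h1 (h1 (h1 (h1 hw)))))) (h1 (h1 (h1 (h1 (h1 (h1 hw))))))) using 1
        ext i; fin_cases i <;> simp <;> grind
      refine eq_top_iff.2 fun v _ => ?_
      convert W.add_mem (W.add_mem (W.add_mem (W.add_mem (W.add_mem (W.add_mem (W.smul_mem (v 0) e)
        (W.smul_mem (v 1) (h2 e))) (W.smul_mem (v 2) (h2 (h2 e)))) (W.smul_mem (v 3) (h2 (h2 (h2 e)))))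
        (W.smul_mem (v 4) (h2 (h2 (h2 (h2 e)))))) (W.smul_mem (v 5) (h2 (h2 (h2 (h2 (h2 e)))))))
        (W.smul_mem (v 6) (h2 (h2 (h2 (h2 (h2 (h2 e))))))) using 1
      ext i; fin_cases i <;> simp)
  refine or_iff_not_imp_right.2 fun hne => (Submodule.eq_bot_iff _).2 fun w hw => ?_
  have e : w = ![w 0, w 1, w 2, w 3, w 4, w 5, w 6] := by ext i; fin_cases i <;> rfl
  rw [e] at hw
  rw [e, k hw hne, k (h2 hw) hne, k (h2 (h2 hw)) hne, k (h2 (h2 (h2 hw))) hne,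
    k (h2 (h2 (h2 (h2 hw)))) hne, k (h2 (h2 (h2 (h2 (h2 hw))))) hne,
    k (h2 (h2 (h2 (h2 (h2 (h2 hw)))))) hne]
  simp

theorem th_ne (h : Om7 ω) (h7 : (7 : F) ≠ 0) :
    ω ^ 2 + ω ^ 5 ≠ ω + ω ^ 6 ∧ ω ^ 3 + ω ^ 4 ≠ ω + ω ^ 6 := by
  have k : ∀ n : ℕ, n % 7 ≠ 0 → 1 - ω ^ n ≠ 0 := fun n hn => sub_ne_zero.2 (om_pow h h7 hn).symm
  exact ⟨fun e => mul_ne_zero (mul_ne_zero (om0 h) (k 1 (by norm_num))) (k 4 (by norm_num))
    (by linear_combination -e), fun e => mul_ne_zero (mul_ne_zero (om0 h) (k 2 (by norm_num)))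
      (k 3 (by norm_num)) (by linear_combination -e)⟩

variable [StarRing F]

theorem sim_iff {X : M7 F} {c : F} : (∀ u v, stdHF (Fin 7) F (X *ᵥ u) (X *ᵥ v) =
    c * stdHF (Fin 7) F u v) ↔ Xᴴ * X = c • 1 := by
  have e : ∀ u v, stdHF (Fin 7) F u v = star v ⬝ᵥ u := fun u v => dotProduct_comm u (star v)
  simp only [e, star_mulVec, ← dotProduct_mulVec, mulVec_mulVec]
  refine ⟨fun k => ?_, fun k u v => by simp [k, smul_mulVec]⟩
  ext i j
  simpa [← Pi.single_star, one_apply, Pi.single_apply, eq_comm] using k (Pi.single j 1) (Pi.single i 1)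

/-- unitary matrices of determinant one -/
noncomputable def SU7 (F : Type*) [Field F] [StarRing F] : Subgroup (GL (Fin 7) F) :=
  (stdHF (Fin 7) F).SU.comap gl0.toMonoidHom

theorem mem_SU7 {g : GL (Fin 7) F} : g ∈ SU7 F ↔ g.1ᴴ * g.1 = 1 ∧ g.1.det = 1 := by
  rw [← one_smul F (1 : M7 F), ← sim_iff]
  refine HF.mem_SU.trans (and_congr (by simp only [one_mul]; rfl) ?_)
  show LinearMap.det ((gl0 g : (Fin 7 → F) ≃ₗ[F] _) : (Fin 7 → F) →ₗ[F] _) = 1 ↔ _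
  rw [gl0_coe, LinearMap.det_toLin']

theorem ff {g : GL (Fin 7) F} {Y : M7 F} {l : F} (hY : Yᴴ * Y = l • 1) :
    ((g⁻¹).1 * Y * g.1)ᴴ * (g.1ᴴ * g.1) * ((g⁻¹).1 * Y * g.1) = l • (g.1ᴴ * g.1) := by
  have e : ((g⁻¹).1)ᴴ * g.1ᴴ = 1 := by rw [← conjTranspose_mul, Units.mul_inv, conjTranspose_one]
  rw [conjTranspose_mul, conjTranspose_mul]
  calc g.1ᴴ * (Yᴴ * (g⁻¹).1ᴴ) * (g.1ᴴ * g.1) * ((g⁻¹).1 * Y * g.1)
      = g.1ᴴ * (Yᴴ * (((g⁻¹).1ᴴ * g.1ᴴ) * (g.1 * (g⁻¹).1)) * Y) * g.1 := by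
        simp only [Matrix.mul_assoc]
    _ = _ := by rw [e, Units.mul_inv, Matrix.mul_one, Matrix.mul_one, hY]; simp

theorem conj_SU7 {P g : GL (Fin 7) F} {j : F} (hP : P.1ᴴ * P.1 = j • 1) (hg : g ∈ SU7 F) :
    P⁻¹ * g * P ∈ SU7 F := by
  have j0 : j ≠ 0 := by
    rintro rfl
    simpa [P.det_ne_zero] using congrArg det hP
  obtain ⟨g1, g2⟩ := mem_SU7.1 hg
  have := ff (g := P) (l := 1) (g1.trans (one_smul _ _).symm)
  rw [hP, one_smul, mul_smul_comm, smul_mul_assoc, Matrix.mul_one] at this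
  exact mem_SU7.2 ⟨smul_right_injective _ j0 this, (det_units_conj' P g.1).trans g2⟩

theorem inv_sim {P : GL (Fin 7) F} {j : F} (hP : P.1ᴴ * P.1 = j • 1) :
    (P⁻¹).1ᴴ * (P⁻¹).1 = j⁻¹ • 1 := by
  have j0 : j ≠ 0 := by
    rintro rfl
    simpa [P.det_ne_zero] using congrArg det hP
  have := congrArg (fun X => j⁻¹ • ((P⁻¹).1ᴴ * X * (P⁻¹).1)) hP
  simp only [← Matrix.mul_assoc, ← conjTranspose_mul, Units.mul_inv, conjTranspose_one, Matrix.one_mul,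
    mul_smul_comm, smul_mul_assoc, smul_smul, inv_mul_cancel₀ j0, one_smul, Matrix.mul_one] at this
  exact this.symm

section Uni

variable (o7 : ω ^ 7 = 1) (st : star ω = ω ^ 6)
include o7 st

theorem uni_ρ : (ρ ω)ᴴ * ρ ω = 1 := by
  rw [ρ_eq, diagonal_conjTranspose, diagonal_mul_diagonal, ← diagonal_one]
  congr 1; ext i
  rw [Pi.star_apply, star_pow, st, ← mul_pow, ← pow_succ, o7, one_pow]

theorem uni_uu : (uu ω)ᴴ * uu ω = 1 := by
  rw [uu_eq, diagonal_conjTranspose, diagonal_mul_diagonal, ← diagonal_one]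
  congr 1; ext i
  rw [Pi.star_apply, star_pow, st, ← mul_pow, ← pow_succ, o7, one_pow]

omit o7 in
theorem uni_Φ (h : Om7 ω) {c : F} (c1 : 7 * c ^ 2 = -1) (c3 : star c = -c) :
    (c • Φ ω)ᴴ * (c • Φ ω) = 1 := by
  have o7 := om7 h
  have : (Φ ω)ᴴ * Φ ω = (7 : F) • 1 := by
    rw [show (Φ ω)ᴴ = Φ (star ω) by m7, st]; m7x <;> grind
  rw [conjTranspose_smul, c3, smul_mul_smul_comm, this, smul_smul, show -c * c * 7 = 1 by
    linear_combination -c1, one_smul]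

end Uni

theorem uni_τ : (τ : M7 F)ᴴ * τ = 1 := by m7

theorem uni_δ : (δ : M7 F)ᴴ * δ = 1 := by m7

theorem uni_σ : (σ : M7 F)ᴴ * σ = 1 := by m7

/-- everything the bridge knows about the model `N` of the normaliser -/
structure Bd [Fintype F] (p q : ℕ) (ω : F) (N : Subgroup (GL (Fin 7) F)) : Prop where
  prime : p.Prime
  char : CharP F p
  card : Fintype.card F = q ^ 2
  cd : (q = p ∧ p % 7 = 6) ∨ (q = p ^ 3 ∧ (p % 7 = 3 ∨ p % 7 = 5))
  hst : ∀ x : F, star x = x ^ q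
  p2 : p ≠ 2
  p7 : p ≠ 7
  two : (2 : F) ≠ 0
  seven : (7 : F) ≠ 0
  om : Om7 ω
  st : star ω = ω ^ 6
  gen : ∀ k : Subfield F, ω + ω ^ 6 ∈ k → ∀ t : F, star t = t → t ∈ k
  hρ : InM N (ρ ω)
  hτ : InM N τ
  hu : InM N (uu ω)
  hσ : InM N σ
  hδ : InM N δ
  hφ : ∃ c : F, 7 * c ^ 2 = -1 ∧ InM N (c • Φ ω)
  det : ∀ g ∈ N, g.1.det = 1
  uni : ∀ g ∈ N, g.1ᴴ * g.1 = 1

theorem Bd.mono [Fintype F] {p q : ℕ} {N M : Subgroup (GL (Fin 7) F)} (h : Bd p q ω N) (e : N ≤ M)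
    (hd : ∀ g ∈ M, g.1.det = 1) (hu : ∀ g ∈ M, g.1ᴴ * g.1 = 1) : Bd p q ω M :=
  { h with
    hρ := h.hρ.mono e, hτ := h.hτ.mono e, hu := h.hu.mono e, hσ := h.hσ.mono e, hδ := h.hδ.mono e
    hφ := h.hφ.imp fun _ k => ⟨k.1, k.2.mono e⟩, det := hd, uni := hu }

/-- the core statement in the standard model (either form of the conclusion will do) -/
def MainB (F : Type*) [Field F] [StarRing F] [Fintype F] : Prop :=
  ∀ {p q : ℕ} {ω : F} {N M : Subgroup (GL (Fin 7) F)}, Bd p q ω N → N ≤ M → (∀ g ∈ M, g.1.det = 1) →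
    (∀ g ∈ M, g.1ᴴ * g.1 = 1) → (∀ g ∈ M, (∃ a : F, g.1 * ρ ω = a • (ρ ω * g.1)) →
      (∃ b : F, g.1 * τ = b • (τ * g.1)) → g ∈ N) →
    (∀ e : Fin 7 → F, e ≠ 0 → star e ⬝ᵥ e = 0 →
      ¬ ∀ c : F, c + star c = 0 → InM M (1 + c • vecMulVec e (star e))) →
    M ≤ N ∨ ∀ g ∈ M, ∀ X Y : M7 F, X = ρ ω ∨ X = τ → Y = ρ ω ∨ Y = τ →
      ∃ a : F, g.1 * X * (g⁻¹).1 * Y = a • (Y * (g.1 * X * (g⁻¹).1))

theorem stdU [Fintype F] [NStar F] (main : MainB F) {p q : ℕ} (hp : p.Prime) (hc : CharP F p)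
    (hq : Fintype.card F = q ^ 2) (cd : (q = p ∧ p % 7 = 6) ∨ (q = p ^ 3 ∧ (p % 7 = 3 ∨ p % 7 = 5)))
    (hst : ∀ x : F, star x = x ^ q) (h : Om7 ω) (h2 : (2 : F) ≠ 0) (h7 : (7 : F) ≠ 0)
    (st : star ω = ω ^ 6) (gen : ∀ k : Subfield F, ω + ω ^ 6 ∈ k → ∀ t : F, star t = t → t ∈ k)
    (h3 : 3 ≤ q) {R : Subgroup (GL (Fin 7) F)} (r1 : InM R (ρ ω)) (r2 : InM R τ)
    (tw : ∀ A B, InM R A → InM R B → ∃ c, Tw A B c) :
    (∃ g ∈ SU7 F, g ∉ normalizer (R : Set (GL (Fin 7) F))) ∧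
    ∀ M ≤ SU7 F, (∀ g ∈ SU7 F, g ∈ normalizer (R : Set (GL (Fin 7) F)) → g ∈ M) →
      (∃ g ∈ M, g ∉ normalizer (R : Set (GL (Fin 7) F))) → SU7 F ≤ M := by
  have o7 := om7 h
  have inv : ∀ m n : ℕ, ρ ω ^ m * τ ^ n * (τ ^ (6 * n) * ρ ω ^ (6 * m)) = 1 := fun m n => by
    rw [mul_assoc, ← mul_assoc (τ ^ n), ← pow_add, show n + 6 * n = 7 * n by ring, pow_mul, τ7, one_pow,
      one_mul, ← pow_add, show m + 6 * m = 7 * m by ring, pow_mul, ρ7 o7, one_pow]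
  have nrm : ∀ (g : GL (Fin 7) F) (Y Z : M7 F), InM R Y → InM R Z → g.1 * ρ ω = Y * g.1 →
      g.1 * τ = Z * g.1 → g ∈ normalizer (R : Set (GL (Fin 7) F)) := by
    intro g Y Z hY hZ e1 e2
    refine mem_normalizer_fintype fun r hr => ?_
    obtain ⟨a, ha⟩ := tw _ _ (InM.of hr) r1
    obtain ⟨b, hb⟩ := tw _ _ (InM.of hr) r2
    obtain ⟨m, n, l, e⟩ := pauli h h7 (GeneralLinearGroup.det_ne_zero r) ha hb
    have k1 : InM R (l • 1) := ((InM.of hr).mul ((r2.pow (6 * n)).mul (r1.pow (6 * m)))).congr (by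
      rw [e, smul_mul_assoc, inv])
    refine inM_iff.1 ((k1.mul ((hY.pow m).mul (hZ.pow n))).congr ?_)
    rw [Units.val_mul, Units.eq_mul_inv_iff_mul_eq, Units.val_mul, e, smul_one_mul, mul_smul_comm,
      smul_mul_assoc, ← mul_assoc, (SemiconjBy.pow_right e1 m).eq, mul_assoc, mul_assoc,
      (SemiconjBy.pow_right e2 n).eq]
  have om1 : InM R (ω • 1) := (((r1.mul r2).mul (r1.pow 6)).mul (r2.pow 6)).congr (by
    rw [ρτ o7, smul_mul_assoc, smul_mul_assoc, mul_assoc τ, ← pow_succ', ρ7 o7, mul_one, ← pow_succ', τ7])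
  have inR : ∀ X : M7 F, X.det = 1 → (∃ a : F, X * ρ ω = a • (ρ ω * X)) → (∃ b : F, X * τ = b • (τ * X)) →
      InM R X := fun X d ⟨a, ha⟩ ⟨b, hb⟩ => by
    obtain ⟨m, n, l, e⟩ := pauli h h7 (d ▸ one_ne_zero) ha hb
    rw [e] at d ⊢
    obtain ⟨k, rfl⟩ := root h h7 (c := l) (by simpa [det_ρ o7, det_τ] using d)
    exact ((om1.pow k).mul ((r1.pow m).mul (r2.pow n))).congr (by simp [_root_.smul_pow])
  refine ⟨?_, fun M hM hN ⟨g, hg, hg'⟩ => ?_⟩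
  · obtain ⟨z, hz, z1⟩ := exists_norm_one_ne_one F
    let t : GL (Fin 7) F := ⟨diagonal ![z, star z, 1, 1, 1, 1, 1], diagonal ![star z, z, 1, 1, 1, 1, 1],
      by rw [diagonal_mul_diagonal, ← diagonal_one]; congr 1; ext i; fin_cases i <;> simp [hz, mul_comm],
      by rw [diagonal_mul_diagonal, ← diagonal_one]; congr 1; ext i; fin_cases i <;> simp [hz, mul_comm]⟩
    refine ⟨t, mem_SU7.2 ⟨?_, by simp [t, Fin.prod_univ_succ, hz]⟩, fun ht => ?_⟩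
    · rw [← t.inv_val]; congr 1; rw [diagonal_conjTranspose]; congr 1; ext i; fin_cases i <;> simp
    obtain ⟨r, hr, e⟩ := id r2
    obtain ⟨a, ha⟩ := tw _ _ (InM.of ((mem_normalizer_iff.1 ht r).1 hr)) r2
    simp only [Tw, Units.val_mul, e, Units.inv_mk, t] at ha
    have a1 := congrFun (congrFun ha 4) 2
    have a2 := congrFun (congrFun ha 3) 1
    simp [τ, mul_apply, vecMul, dotProduct, Fin.sum_univ_succ, diagonal_apply] at a1 a2
    exact z1 (by rw [a2, ← a1, one_mul])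
  have nrm' : ∀ X Y Z : M7 F, Xᴴ * X = 1 → X.det = 1 → InM R Y → InM R Z → X * ρ ω = Y * X →
      X * τ = Z * X → InM (normalizer (R : Set (GL (Fin 7) F)) ⊓ SU7 F) X := fun X Y Z u d hY hZ e1 e2 =>
    ⟨GeneralLinearGroup.mkOfDetNeZero X (by simp [d]), ⟨nrm _ _ _ hY hZ e1 e2, mem_SU7.2 ⟨u, d⟩⟩, rfl⟩
  obtain ⟨c, c1, c2, c3⟩ : ∃ c : F, 7 * c ^ 2 = -1 ∧ (c • Φ ω).det = 1 ∧ star c = -c := by
    have e1 : 7 * ((1 + 2 * ω + 2 * ω ^ 2 + 2 * ω ^ 4) / 7) ^ 2 = -1 := by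
      field_simp; linear_combination (4 * ω ^ 2 - 4 * ω + 8) * h
    have e2 : star ((1 + 2 * ω + 2 * ω ^ 2 + 2 * ω ^ 4) / 7) =
        -((1 + 2 * ω + 2 * ω ^ 2 + 2 * ω ^ 4) / 7) := by
      simp only [star_div₀, star_add, star_mul', star_pow, st, star_ofNat, star_one, ← neg_div]
      congr 1; grind
    generalize (1 + 2 * ω + 2 * ω ^ 2 + 2 * ω ^ 4) / 7 = c at e1 e2
    have e3 := congrArg det (ΦΦ h)
    simp only [det_mul, det_smul, det_σ, Fintype.card_fin] at e3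
    rcases sq_eq_one_iff.1 (show (c ^ 7 * (Φ ω).det) ^ 2 = 1 by grind) with e | e
    · exact ⟨c, e1, by simpa using e, e2⟩
    · exact ⟨-c, by simpa using e1, by simp only [det_smul, Fintype.card_fin]; linear_combination -e,
        by rw [star_neg, e2]⟩
  have hu : Bd p q ω (normalizer (R : Set (GL (Fin 7) F)) ⊓ SU7 F) :=
    { prime := hp, char := hc, card := hq, cd := cd, hst := hst, p2 := by omega, p7 := by omega
      two := h2, seven := h7, om := h, st := st, gen := gen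
      hρ := nrm' _ _ _ (uni_ρ o7 st) (det_ρ o7) r1 (om1.mul r2) rfl (by rw [ρτ o7]; simp)
      hτ := nrm' _ _ _ uni_τ det_τ ((om1.pow 6).mul r1) r2 (by rw [τρ o7]; simp [_root_.smul_pow]) rfl
      hu := nrm' _ _ _ (uni_uu o7 st) (det_uu o7) r1 ((r1.mul r2).mul r1) uρ (uτ o7)
      hσ := nrm' _ _ _ uni_σ det_σ ((r1.pow 6).congr (ρ_pow 6)) (r2.inv ττ') (σρ o7) στ
      hδ := nrm' _ _ _ uni_δ det_δ ((r1.pow 4).congr (ρ_pow 4)) (r2.mul r2) (δρ o7) δτ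
      hφ := ⟨c, c1, nrm' _ _ _ (uni_Φ st h c1 c3) c2 (r2.inv ττ') r1
        (by rw [smul_mul_assoc, mul_smul_comm, Φρ o7]) (by rw [smul_mul_assoc, mul_smul_comm, Φτ o7])⟩
      det := fun g hg => (mem_SU7.1 hg.2).2
      uni := fun g hg => (mem_SU7.1 hg.2).1 }
  have le : normalizer (R : Set (GL (Fin 7) F)) ⊓ SU7 F ≤ M := fun g hg => hN g hg.2 hg.1
  by_cases hn : ∃ e : Fin 7 → F, e ≠ 0 ∧ star e ⬝ᵥ e = 0 ∧
      ∀ c : F, c + star c = 0 → InM M (1 + c • vecMulVec e (star e))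
  swap
  · refine (main hu le (fun g hg => (mem_SU7.1 (hM hg)).2) (fun g hg => (mem_SU7.1 (hM hg)).1)
      (fun g hg a b => ⟨le_normalizer (inM_iff.1 (inR _ (mem_SU7.1 (hM hg)).2 a b)), hM hg⟩)
      fun e a b c => hn ⟨e, a, b, c⟩).elim (fun k => absurd (k hg).1 hg') fun hc => ?_
    have key : ∀ X, X = ρ ω ∨ X = τ → InM R (g.1 * X * (g⁻¹).1) := fun X hX =>
      inR _ (by rw [det_units_conj]; rcases hX with rfl | rfl; exacts [det_ρ o7, det_τ])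
        (hc g hg X _ hX (.inl rfl)) (hc g hg X _ hX (.inr rfl))
    exact absurd (nrm g _ _ (key _ (.inl rfl)) (key _ (.inr rfl)) (Units.inv_mul_cancel_right _ g).symm
      (Units.inv_mul_cancel_right _ g).symm) hg'
  obtain ⟨e, e0, ee, hX⟩ := hn
  have ee' : stdHF (Fin 7) F e e = 0 := (dotProduct_comm e (star e)).trans ee
  have := U5.big7 (h := stdHF (Fin 7) F) (M := M.map gl0.toMonoidHom) (by simp) hq h3
    (map_le_iff_le_comap.2 hM) (fun W hW => irr7 h h7 W (fun w hw => by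
      obtain ⟨k, hk, e⟩ := hu.hρ; exact e ▸ hW _ ⟨k, le hk, rfl⟩ w hw) fun w hw => by
      obtain ⟨k, hk, e⟩ := hu.hτ; exact e ▸ hW _ ⟨k, le hk, rfl⟩ w hw) e0 ee' fun c hc => by
      obtain ⟨k, hk, e1⟩ := hX c hc
      refine ⟨k, hk, LinearEquiv.ext fun x => ?_⟩
      rw [HF.T_apply ee' hc, show stdHF (Fin 7) F x e = star e ⬝ᵥ x from dotProduct_comm x (star e)]
      show k.1 *ᵥ x = _
      rw [e1, add_mulVec, one_mulVec, smul_mulVec, vecMulVec_mulVec, op_smul_eq_smul, smul_smul]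
  intro k hk
  obtain ⟨k', hk', e⟩ := this hk
  exact gl0.injective e ▸ hk'

omit [StarRing F] in
theorem su7_of_main [Fintype F] (main : ∀ [StarRing F] [NStar F], MainB F) (q : ℕ)
    (hF : Fintype.card F = q ^ 2) (p : ℕ) (R : Subgroup (GL (Fin 7) F)) (hp : p.Prime) (hc : CharP F p)
    (hq : (q = p ∧ p % 7 = 6) ∨ (q = p ^ 3 ∧ (p % 7 = 3 ∨ p % 7 = 5)))
    (hR : Geo.IsSymplecticTypeGroup 7 R) (hA : Geo.ActsAbsolutelyIrreducibly (Geo.matrixSet R))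
    (hS : R ≤ Geo.similarityGroup (hermForm 7 F q)) (hn : Nat.card R = 343)
    (hZ : Nat.card (center R) = 7) :
    Geo.IsMaximalIn (GU 7 F q ⊓ Geo.specialLinear (Fin 7) F)
      (Geo.subgroupNormalizer R ⊓ (GU 7 F q ⊓ Geo.specialLinear (Fin 7) F)) := by
  letI := powStar hF
  haveI := powStar_nstar hF
  have := Fact.mk (show Nat.Prime 7 by norm_num)
  have := Fact.mk hp
  have q4 : q % 7 = 6 := by
    rcases hq with ⟨rfl, e⟩ | ⟨rfl, e | e⟩ <;> simp [Nat.pow_mod, e]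
  have habs : H7.AbsIrr R := H7.absIrr_iff.2 hA
  have hexp : Monoid.exponent R = 7 := hR.exponent_eq
  have r5 : ∀ g ∈ R, g ^ 7 = 1 := fun g hg =>
    congrArg Subtype.val (hexp ▸ Monoid.pow_exponent_eq_one (⟨g, hg⟩ : R))
  have cm : ∀ x ∈ R, ∀ y ∈ R, x * y * x⁻¹ * y⁻¹ ∈ Geo.scalars (Fin 7) F := fun x hx y hy =>
    habs.mem_scalars fun g hg => (congrArg Subtype.val (mem_center_iff.1 (H1.T3.symp_comm
      hR.pGroup hR.cyclic_of_characteristic (hexp.trans hZ.symm) ⟨x, hx⟩ ⟨y, hy⟩) ⟨g, hg⟩)).symm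
  obtain ⟨x, hx, y, hy, c, c1, c5, e⟩ := H7.exists_root_of_comm (by simp) habs cm (r := 7)
    fun x hx => by rw [r5 x hx]; exact one_mem _
  have c2 : (c : F) - 1 ≠ 0 := fun h => c1 (Units.ext (sub_eq_zero.1 h))
  have c3 : (c : F) ^ 7 = 1 := by simpa using congrArg Units.val c5
  have h : Om7 (c : F) := mul_left_cancel₀ c2 (by linear_combination c3)
  have ne : ∀ n : ℕ, n.Prime → n ≠ p → (n : F) ≠ 0 := fun n hn hne h =>
    hne ((Nat.prime_dvd_prime_iff_eq hp hn).1 ((CharP.cast_eq_zero_iff F p n).1 h)).symm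
  have h7 : (7 : F) ≠ 0 := by exact_mod_cast ne 7 (by norm_num) (by omega)
  have h2 : (2 : F) ≠ 0 := by exact_mod_cast ne 2 (by norm_num) (by omega)
  have md : ∀ n : ℕ, (c : F) ^ n = c ^ (n % 7) := fun n => pow_eq_pow_mod n c3
  have st : star (c : F) = c ^ 6 := q4 ▸ md q
  obtain ⟨P, p1, p2⟩ := frame h h7 (x := x.1) (y := y.1) (by simpa using congrArg Units.val (r5 x hx))
    (by simpa using congrArg Units.val (r5 y hy)) (by simpa [Tw] using congrArg Units.val e)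
  have hJ : ∀ r ∈ R, ∀ X : M7 F, r.1 * P.1 = P.1 * X → X * Xᴴ = 1 → Tw (P.1ᴴ * P.1) X 1 := by
    intro r hr X e1 e2
    obtain ⟨l, hl⟩ := hS hr
    have k1 : r.1ᴴ * r.1 = l.1 • 1 := sim_iff.1 hl
    have k2 : Tw (P.1ᴴ * P.1) X l := by
      have := congrArg (X * ·) (ff (g := P) k1)
      simp only [mul_assoc (P⁻¹).1, e1, Units.inv_mul_cancel_left] at this
      rw [← mul_assoc, ← mul_assoc, e2, one_mul, mul_smul_comm] at this
      exact this
    obtain ⟨k, hk⟩ := root h h7 (k2.seven (by simp [P.det_ne_zero])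
      (left_ne_zero_of_mul_eq_one (by rw [← det_mul, e2, det_one])))
    have k3 : star l.1 = l := by
      have := congrArg conjTranspose k1
      rw [conjTranspose_mul, conjTranspose_conjTranspose, k1] at this
      simpa using (congrFun (congrFun this 0) 0).symm
    have k4 : l.1 ^ 7 = 1 := by rw [hk, ← pow_mul, mul_comm, pow_mul, c3, one_pow]
    rw [show star l.1 = l.1 ^ 6 by rw [hk, star_pow, st, ← pow_mul, ← pow_mul, mul_comm]] at k3
    rwa [show l.1 = 1 by grind] at k2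
  have hP := scal_of_comm h h7 (hJ x hx _ p1 (mul_eq_one_comm.1 (uni_ρ c3 st)))
    (hJ y hy _ p2 (mul_eq_one_comm.1 uni_τ))
  let φ : GL (Fin 7) F ≃* GL (Fin 7) F := MulAut.conj P⁻¹
  have hφ : ∀ g, φ g = P⁻¹ * g * P := fun g => by simp [φ]
  obtain ⟨k1, k2⟩ := stdU main hp hc hF hq (fun _ => rfl) h h2 h7 st (fun k hk t ht => by
      have e1 := AddSubgroup.card_dvd_of_le (show (k ⊓ F0 F).toAddSubgroup ≤ (F0 F).toAddSubgroup from
        fun _ h => h.2)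
      have e2 : Nat.card (F0 F).toAddSubgroup = q := card_F0 hF
      have e3 : 1 < Nat.card (k ⊓ F0 F : Subfield F) := Finite.one_lt_card
      have e4 : Nat.card (k ⊓ F0 F : Subfield F) = q := by
        rw [e2] at e1
        rcases hq with ⟨rfl, e⟩ | ⟨rfl, e⟩
        · exact (hp.eq_one_or_self_of_dvd _ e1).resolve_left e3.ne'
        obtain ⟨i, hi, e5⟩ := (Nat.dvd_prime_pow hp).1 e1
        have := Fintype.ofFinite (k ⊓ F0 F : Subfield F)
        have e6 := congrArg Subtype.val (FiniteField.pow_card (⟨c + c ^ 6, hk, by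
          show star _ = _
          rw [star_add, star_pow, st]; grind⟩ : (k ⊓ F0 F : Subfield F)))
        rw [← Nat.card_eq_fintype_card, show Nat.card (k ⊓ F0 F : Subfield F) = p ^ i from e5] at e6
        simp only [SubmonoidClass.coe_pow, add_pow_char_pow, ← pow_mul] at e6
        rw [md (p ^ i), md (6 * p ^ i), Nat.mul_mod, Nat.pow_mod] at e6
        interval_cases i
        · exact absurd e5 (by simpa using e3.ne')
        · rcases e with e | e <;> norm_num [e] at e6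
          exacts [absurd e6 (th_ne h h7).2, absurd (add_comm _ _ |>.trans e6) (th_ne h h7).1]
        · rcases e with e | e <;> norm_num [e] at e6
          exacts [absurd e6 (th_ne h h7).1, absurd (add_comm _ _ |>.trans e6) (th_ne h h7).2]
        · exact e5
      exact ((AddSubgroup.eq_of_le_of_card_ge (show (k ⊓ F0 F).toAddSubgroup ≤ (F0 F).toAddSubgroup from
        fun _ h => h.2) (e2.trans e4.symm).le).ge ht).1) (by omega) (R := R.map φ.toMonoidHom)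
    ⟨_, ⟨x, hx, rfl⟩, by simp [hφ, mul_assoc, p1]⟩ ⟨_, ⟨y, hy, rfl⟩, by simp [hφ, mul_assoc, p2]⟩ (by
      rintro _ _ ⟨_, ⟨a, ha, rfl⟩, rfl⟩ ⟨_, ⟨b, hb, rfl⟩, rfl⟩
      obtain ⟨d, hd⟩ := H7.exists_comm_scal (cm a ha b hb)
      refine ⟨d, ?_⟩
      have := congrArg (fun g => (φ g).1) hd
      simp only [map_mul] at this
      simpa [Tw, hφ, H7.scalGL_comm, mul_assoc] using this)
  have hK : ∀ g, g ∈ GU 7 F q ⊓ Geo.specialLinear (Fin 7) F ↔ g ∈ SU7 F := fun g =>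
    and_congr Iff.rfl (glEquiv_mem_SLV _ g).symm
  refine H9.Sp.isMaximalIn_transport φ _ _ _ (· ∈ normalizer (R.map φ.toMonoidHom : Set _))
    (fun g => ?_) (fun g _ => ?_) k1 k2
  · rw [hK, hφ]
    exact ⟨conj_SU7 hP, fun k => by simpa [mul_assoc] using conj_SU7 (inv_sim hP) k⟩
  rw [← map_equiv_normalizer_eq, mem_map_equiv]
  simp [Geo.subgroupNormalizer]

end Cfsg.Agent.H5.C7U
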