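import Cfsg.Agent.H5.C7U.Br
import Cfsg.Agent.H8.C7U.Set

/-! The normaliser of `7^{1+2}` in `SU₇(q)`: the bridge from the core statement. -/

set_option autoImplicit false

namespace Cfsg.Agent.H5.C7U

open Matrix Subgroup Cfsg.Agent.H5.U Cfsg.Agent.H2.S7

theorem su7_of_main7u {F : Type*} [Field F] [Fintype F] (main : ∀ [StarRing F] [NStar F], Main7U F)
    (q : ℕ) (hF : Fintype.card F = q ^ 2) (p : ℕ) (R : Subgroup (GL (Fin 7) F)) (hp : p.Prime)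
    (hc : CharP F p) (hq : (q = p ∧ p % 7 = 6) ∨ (q = p ^ 3 ∧ (p % 7 = 3 ∨ p % 7 = 5)))
    (hR : Geo.IsSymplecticTypeGroup 7 R) (hA : Geo.ActsAbsolutelyIrreducibly (Geo.matrixSet R))
    (hS : R ≤ Geo.similarityGroup (hermForm 7 F q)) (hn : Nat.card R = 343)
    (hZ : Nat.card (center R) = 7) :
    Geo.IsMaximalIn (GU 7 F q ⊓ Geo.specialLinear (Fin 7) F)
      (Geo.subgroupNormalizer R ⊓ (GU 7 F q ⊓ Geo.specialLinear (Fin 7) F)) :=
  su7_of_main (fun h le hd hu _ hn => have k := h.mono le hd hu; .inr (main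
    ⟨⟨k.prime, k.char, inferInstance, k.two, k.seven, k.om, k.hρ, k.hτ, k.hu, k.hσ, k.hδ, k.hφ, k.det⟩,
      k.uni, k.st, k.gen⟩ hn)) q hF p R hp hc hq hR hA hS hn hZ

end Cfsg.Agent.H5.C7U
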